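import Cfsg.Agent.Lib.Helper15.SF3.Defs

/-! Ladder SF3 (S5966), rung ACT. -/

set_option autoImplicit false

namespace Cfsg.Agent.Lib.Helper15.SF3

open Module

theorem act_unitsSMul {F : Type*} [Field F] (F₀ : Subfield F) {V : Type*} [AddCommGroup V]
    [Module F V] {t : ℕ} {d : Fin t → ℕ} {N : End F V} {b : Basis ((k : Fin t) × Fin (d k)) F V}
    (hJB : IsJB d N b) (w : ((k : Fin t) × Fin (d k)) → Fˣ)
    (hw : ∀ (k : Fin t) (j : Fin (d k)) (h : (j : ℕ) + 1 < d k),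
        ((w ⟨k, j⟩ : Fˣ) : F) * (((w ⟨k, ⟨(j : ℕ) + 1, h⟩⟩ : Fˣ) : F))⁻¹ ∈ F₀)
    (T : End F V) (a : F) (hT : T = a • (1 + N)) (i : (k : Fin t) × Fin (d k)) :
    ∃ A : ((k : Fin t) × Fin (d k)) → F, (∀ j, A j ∈ F₀) ∧
      T ((b.unitsSMul w) i) = a • ∑ j, A j • (b.unitsSMul w) j := by
  classical
  obtain ⟨k, j⟩ := i
  have hb : ∀ x, (b.unitsSMul w) x = ((w x : Fˣ) : F) • b x := by
    intro x
    rw [Basis.unitsSMul_apply, Units.smul_def]
  have h1 : T ((b.unitsSMul w) ⟨k, j⟩) =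
      a • ((b.unitsSMul w) ⟨k, j⟩ + ((w ⟨k, j⟩ : Fˣ) : F) • N (b ⟨k, j⟩)) := by
    rw [hT, LinearMap.smul_apply, LinearMap.add_apply, Module.End.one_apply, hb, map_smul]
  by_cases h : (j : ℕ) + 1 < d k
  · refine ⟨fun x => (if x = ⟨k, j⟩ then 1 else 0) + (if x = ⟨k, ⟨(j : ℕ) + 1, h⟩⟩ then
      ((w ⟨k, j⟩ : Fˣ) : F) * (((w ⟨k, ⟨(j : ℕ) + 1, h⟩⟩ : Fˣ) : F))⁻¹ else 0), ?_, ?_⟩
    · intro x
      apply F₀.add_mem
      · split_ifs
        · exact F₀.one_mem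
        · exact F₀.zero_mem
      · split_ifs
        · exact hw k j h
        · exact F₀.zero_mem
    · rw [h1, hJB k j, dif_pos h]
      congr 1
      simp only [add_smul, Finset.sum_add_distrib, ite_smul, one_smul, zero_smul,
        Finset.sum_ite_eq', Finset.mem_univ, if_true]
      congr 1
      rw [hb ⟨k, ⟨(j : ℕ) + 1, h⟩⟩, smul_smul, mul_assoc,
        inv_mul_cancel₀ (w ⟨k, ⟨(j : ℕ) + 1, h⟩⟩).ne_zero, mul_one]
  · refine ⟨fun x => if x = ⟨k, j⟩ then 1 else 0, ?_, ?_⟩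
    · intro x
      dsimp only
      split_ifs
      · exact F₀.one_mem
      · exact F₀.zero_mem
    · rw [h1, hJB k j, dif_neg h, smul_zero, add_zero]
      congr 1
      simp only [ite_smul, one_smul, zero_smul, Finset.sum_ite_eq', Finset.mem_univ, if_true]

end Cfsg.Agent.Lib.Helper15.SF3
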