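import Cfsg.Agent.Lib.Helper15.SF3.Defs

/-! Ladder SF3 (S5966), rung C0. -/

set_option autoImplicit false

namespace Cfsg.Agent.Lib.Helper15.SF3

open Module

theorem scalar_mem {F : Type*} [Field F] (h2 : (2 : F) ≠ 0) (F₀ : Subfield F) {n : ℕ} (hn : 1 ≤ n)
    (c : F) (hc : c ≠ 0) (M₀ : Matrix (Fin n) (Fin n) ↥F₀)
    (h : (c • F₀.subtype.mapMatrix M₀ - 1) * (c • F₀.subtype.mapMatrix M₀ - 1) = 0) : c ∈ F₀ := by
  set M : Matrix (Fin n) (Fin n) F := F₀.subtype.mapMatrix M₀ with hM
  have hMm : ∀ i j, M i j ∈ F₀ := fun i j => (M₀ i j).2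
  have hMM : ∀ i j, (M * M) i j ∈ F₀ := by
    intro i j
    rw [Matrix.mul_apply]
    exact F₀.sum_mem (fun a _ => F₀.mul_mem (hMm _ _) (hMm _ _))
  have e : (c • M - 1) * (c • M - 1) = (c * c) • (M * M) - (2 * c) • M + 1 := by
    rw [Matrix.sub_mul, Matrix.mul_sub, Matrix.mul_sub, Matrix.smul_mul, Matrix.mul_smul, smul_smul,
      Matrix.mul_one, Matrix.one_mul, Matrix.one_mul, two_mul, add_smul]
    abel
  rw [e] at h
  have hent : ∀ i j, c * c * (M * M) i j - 2 * c * M i j + (1 : Matrix (Fin n) (Fin n) F) i j = 0 := by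
    intro i j
    have := congrFun (congrFun h i) j
    simpa [Matrix.add_apply, Matrix.sub_apply, Matrix.smul_apply] using this
  by_cases hoff : ∃ i j, i ≠ j ∧ M i j ≠ 0
  · obtain ⟨i, j, hij, hne⟩ := hoff
    have h1 := hent i j
    rw [Matrix.one_apply_ne hij, add_zero] at h1
    have h3 : c * (M * M) i j = 2 * M i j := by
      have h4 : c * (c * (M * M) i j - 2 * M i j) = 0 := by linear_combination h1
      rcases mul_eq_zero.1 h4 with h5 | h5
      · exact absurd h5 hc
      · linear_combination h5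
    have h6 : (M * M) i j ≠ 0 := by
      intro h7
      rw [h7, mul_zero] at h3
      exact (mul_ne_zero h2 hne) h3.symm
    have h8 : c = 2 * M i j / (M * M) i j := by
      field_simp
      linear_combination h3
    rw [h8]
    exact F₀.div_mem (F₀.mul_mem (by
      have : (2 : F) = 1 + 1 := by norm_num
      rw [this]
      exact F₀.add_mem F₀.one_mem F₀.one_mem) (hMm _ _)) (hMM _ _)
  · push Not at hoff
    let i : Fin n := ⟨0, hn⟩
    have h1 := hent i i
    have h3 : (M * M) i i = M i i * M i i := by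
      rw [Matrix.mul_apply, Finset.sum_eq_single i]
      · intro b _ hb
        rw [hoff i b hb.symm, zero_mul]
      · simp
    rw [h3, Matrix.one_apply_eq] at h1
    have h4 : (c * M i i - 1) * (c * M i i - 1) = 0 := by linear_combination h1
    have h5 : c * M i i = 1 := by
      rcases mul_eq_zero.1 h4 with h5 | h5 <;> linear_combination h5
    have h6 : c = (M i i)⁻¹ := eq_inv_of_mul_eq_one_left h5
    rw [h6]
    exact F₀.inv_mem (hMm _ _)

end Cfsg.Agent.Lib.Helper15.SF3
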