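import Cfsg.Agent.Lib.Helper15.SF3.Defs
import Cfsg.Agent.Lib.Helper99.SubfieldConj

/-! Ladder SF3 (S5966), rung CONJ. -/

set_option autoImplicit false

namespace Cfsg.Agent.Lib.Helper15.SF3

open Module

theorem conj_mem {F : Type*} [Field F] {n : ℕ} (F₀ : Subfield F)
    (x : Matrix.SpecialLinearGroup (Fin n) F) {ι : Type*} [Fintype ι] [DecidableEq ι]
    (b : Basis ι F (Fin n → F)) (σ : Fin n ≃ ι)
    (hdet : LinearMap.det (((Pi.basisFun F (Fin n)).equiv b σ : (Fin n → F) ≃ₗ[F] (Fin n → F)) :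
      (Fin n → F) →ₗ[F] (Fin n → F)) = 1)
    (a : F) (ha : a ≠ 0)
    (h : ∀ i, ∃ A : ι → F, (∀ j, A j ∈ F₀) ∧
      Matrix.toLin' (x : Matrix (Fin n) (Fin n) F) (b i) = a • ∑ j, A j • b j) :
    ∃ P' : Matrix.SpecialLinearGroup (Fin n) F, P'⁻¹ * x * P' ∈
      ((Cfsg.Geo.subfieldSubgroup F₀ 1).comap
        (Matrix.SpecialLinearGroup.toGL : Matrix.SpecialLinearGroup (Fin n) F →* GL (Fin n) F)) := by
  set P : (Fin n → F) ≃ₗ[F] (Fin n → F) := (Pi.basisFun F (Fin n)).equiv b σ with hPdef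
  have hPs : ∀ j : Fin n, P (Pi.single j 1) = b (σ j) := by
    intro j
    rw [hPdef, ← Pi.basisFun_apply, Basis.equiv_apply]
  have hPsymm : ∀ y : ι, P.symm (b y) = Pi.single (σ.symm y) 1 := by
    intro y
    rw [LinearEquiv.symm_apply_eq, hPs, Equiv.apply_symm_apply]
  obtain ⟨P', hP'⟩ := Cfsg.Agent.Lib.Helper99.exists_sl_conj x P hdet
  refine ⟨P', ?_⟩
  apply Cfsg.Agent.Lib.Helper99.mem_subfieldSubgroup_of_entries F₀ _ a ha
  intro i j
  obtain ⟨A, hA, hj⟩ := h (σ j)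
  have h1 := hP' (Pi.single j 1)
  rw [hPs, hj, map_smul, map_sum] at h1
  have h2 := congrFun h1 i
  rw [Matrix.mulVec_single_one] at h2
  refine ⟨A (σ i), hA _, ?_⟩
  show ((P'⁻¹ * x * P' : Matrix.SpecialLinearGroup (Fin n) F) : Matrix (Fin n) (Fin n) F) i j = _
  have h3 : ((P'⁻¹ * x * P' : Matrix.SpecialLinearGroup (Fin n) F) : Matrix (Fin n) (Fin n) F) i j
      = (a • ∑ y, P.symm (A y • b y)) i := h2
  rw [h3, Pi.smul_apply, smul_eq_mul, Finset.sum_apply]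
  congr 1
  rw [Finset.sum_eq_single (σ i)]
  · rw [map_smul, hPsymm, Equiv.symm_apply_apply]
    simp
  · intro y _ hy
    rw [map_smul, hPsymm, Pi.smul_apply, Pi.single_apply, if_neg, smul_zero]
    intro h4
    apply hy
    rw [h4, Equiv.apply_symm_apply]
  · simp

end Cfsg.Agent.Lib.Helper15.SF3
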