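import Cfsg.Agent.Lib.Helper15.SF3.Defs

/-! Ladder SF3 (S5966), rung CUBE. -/

set_option autoImplicit false

namespace Cfsg.Agent.Lib.Helper15.SF3

open Module

/-- Frobenius is onto on a finite field of characteristic 3. -/
theorem exists_cube {F : Type*} [Field F] [Finite F] [CharP F 3] (z : F) : ∃ a : F, a ^ 3 = z := by
  have : Fact (Nat.Prime 3) := ⟨Nat.prime_three⟩
  have hinj : Function.Injective (frobenius F 3) := frobenius_inj F 3
  obtain ⟨a, ha⟩ := (Finite.injective_iff_surjective.1 hinj) z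
  exact ⟨a, ha⟩

theorem exists_cube_units {F : Type*} [Field F] [Finite F] [CharP F 3] (δ : Fˣ) :
    ∃ l : Fˣ, l ^ 3 = δ := by
  obtain ⟨a, ha⟩ := exists_cube (δ : F)
  have ha0 : a ≠ 0 := by
    rintro rfl
    exact δ.ne_zero (by rw [← ha]; simp)
  exact ⟨Units.mk0 a ha0, Units.ext (by simpa using ha)⟩

end Cfsg.Agent.Lib.Helper15.SF3
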