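import Cfsg.Agent.Lib.Helper15.SF3.Defs

/-! Ladder SF3 (S5966), rung DETM. -/

set_option autoImplicit false

namespace Cfsg.Agent.Lib.Helper15.SF3

open Module

theorem det_mem {F : Type*} [Field F] (F₀ : Subfield F) {ι : Type*} [Fintype ι] [DecidableEq ι]
    (W : Matrix ι ι F) (h : ∀ i j, W i j ∈ F₀) : W.det ∈ F₀ := by
  have hW : W = F₀.subtype.mapMatrix (Matrix.of fun i j => (⟨W i j, h i j⟩ : ↥F₀)) := by
    ext i j
    rfl
  rw [hW, ← RingHom.map_det]
  exact Subtype.property _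

theorem wmat_mem {F : Type*} [Field F] (F₀ : Subfield F) {m : ℕ}
    (N : Matrix (Fin (m + m)) (Fin (m + m)) F) (U : Matrix (Fin (m + m)) (Fin m) F)
    (hN : ∀ i j, N i j ∈ F₀) (hU : ∀ i j, U i j ∈ F₀) : ∀ i j, wmat N U i j ∈ F₀ := by
  intro i j
  unfold wmat
  rw [Matrix.submatrix_apply]
  rcases j with j | j
  · exact hU _ _
  · change (N * U) _ _ ∈ F₀
    rw [Matrix.mul_apply]
    exact F₀.sum_mem (fun a _ => F₀.mul_mem (hN _ _) (hU _ _))

end Cfsg.Agent.Lib.Helper15.SF3
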