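import Mathlib
import Cfsg.Prelude.Def_JordanBlocks
import Cfsg.Prelude.Def_GeometricClasses

/-! Ladder SF3 (S5966): elements of order 3 of PSL_n(3^f) and subfield subgroups.  Definitions. -/

set_option autoImplicit false

namespace Cfsg.Agent.Lib.Helper15.SF3

open Module

/-- `b` is a Jordan basis of type `d` for `N`: `N b(k,j) = b(k,j+1)` (`= 0` at the end of a block). -/
def IsJB {E : Type*} [Field E] {V : Type*} [AddCommGroup V] [Module E V] {t : ℕ} (d : Fin t → ℕ)
    (N : End E V) (b : Basis ((k : Fin t) × Fin (d k)) E V) : Prop :=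
  ∀ (k : Fin t) (j : Fin (d k)),
    N (b ⟨k, j⟩) = if h : (j : ℕ) + 1 < d k then b ⟨k, ⟨(j : ℕ) + 1, h⟩⟩ else 0

/-- the diagonal `(δ, 1, …, 1)` -/
def cvec (m : ℕ) {F : Type*} [Field F] (δ : F) : Fin m → F := fun i => if (i : ℕ) = 0 then δ else 1

/-- the unipotent matrix `[[1, 0], [diag (δ,1,…,1), 1]]` of size `2m` -/
def xmat (m : ℕ) {F : Type*} [Field F] (δ : F) : Matrix (Fin (m + m)) (Fin (m + m)) F :=
  Matrix.reindex finSumFinEquiv finSumFinEquiv
    (Matrix.fromBlocks 1 0 (Matrix.diagonal (cvec m δ)) 1)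

/-- the `0/1` matrix selecting the columns `f i` -/
def sel {m n : ℕ} (F : Type*) [Field F] (f : Fin m → Fin n) : Matrix (Fin n) (Fin m) F :=
  Matrix.of fun a i => if a = f i then 1 else 0

/-- the top `m` rows -/
def top {m : ℕ} {F : Type*} {κ : Type*} (A : Matrix (Fin (m + m)) κ F) : Matrix (Fin m) κ F :=
  A.submatrix (fun i => finSumFinEquiv (Sum.inl i)) id

/-- the square matrix `[U | N U]` -/
def wmat {m : ℕ} {F : Type*} [Field F] (N : Matrix (Fin (m + m)) (Fin (m + m)) F)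
    (U : Matrix (Fin (m + m)) (Fin m) F) : Matrix (Fin m ⊕ Fin m) (Fin m ⊕ Fin m) F :=
  (Matrix.fromCols U (N * U)).submatrix finSumFinEquiv id

end Cfsg.Agent.Lib.Helper15.SF3
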