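import Cfsg.Agent.Lib.Helper15.SF3.Defs

/-! Ladder SF3 (S5966), rung EXTR. -/

set_option autoImplicit false

namespace Cfsg.Agent.Lib.Helper15.SF3

open Module

/-- a surjective `m × n` matrix has an invertible `m × m` minor. -/
theorem exists_minor {F : Type*} [Field F] {m n : ℕ} (A : Matrix (Fin m) (Fin n) F)
    (hA : Function.Surjective A.mulVec) : ∃ f : Fin m → Fin n, (A.submatrix id f).det ≠ 0 := by
  have hspan : Submodule.span F (Set.range A.col) = ⊤ := by
    rw [← Matrix.range_mulVecLin, LinearMap.range_eq_top]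
    exact hA
  obtain ⟨κ, a, ha, hsp, hli⟩ := exists_linearIndependent' F A.col
  rw [hspan] at hsp
  have hfin : Finite κ := Finite.of_injective a ha
  let B : Basis κ F (Fin m → F) := Basis.mk hli hsp.ge
  have hcard : Nat.card κ = m := by
    rw [← Module.finrank_eq_nat_card_basis B]
    simp
  let e : Fin m ≃ κ := (Finite.equivFinOfCardEq hcard).symm
  refine ⟨a ∘ e, ?_⟩
  have h1 : LinearIndependent F (A.submatrix id (a ∘ e)).col := by
    have h2 : (A.submatrix id (a ∘ e)).col = (A.col ∘ a) ∘ e := by
      funext i j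
      rfl
    rw [h2]
    exact hli.comp e e.injective
  rw [Matrix.linearIndependent_cols_iff_isUnit, Matrix.isUnit_iff_isUnit_det] at h1
  exact h1.ne_zero

end Cfsg.Agent.Lib.Helper15.SF3
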