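import Cfsg.Agent.Lib.Helper15.SF3.Defs
import Cfsg.Agent.Lib.Helper48.JordanBlockDiag

/-! Ladder SF3 (S5966), rung JM. -/

set_option autoImplicit false

namespace Cfsg.Agent.Lib.Helper15.SF3

open Module

theorem JM_eq {E : Type*} [Field E] {t : ℕ} (d : Fin t → ℕ) :
    Cfsg.jordanTypeMatrix d E - 1 =
      Matrix.blockDiagonal' (fun i => Cfsg.jordanBlock (d i) E - 1) := by
  have := Cfsg.Agent.Lib.Helper48.jordanTypeMatrix_sub_one_pow (F := E) d 1
  simpa using this

theorem jm {E : Type*} [Field E] {t : ℕ} (d : Fin t → ℕ) (k : Fin t) (j : Fin (d k)) :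
    (Cfsg.jordanTypeMatrix d E - 1).mulVec (Pi.single (⟨k, j⟩ : (k : Fin t) × Fin (d k)) (1 : E)) =
      if h : (j : ℕ) + 1 < d k then Pi.single (⟨k, ⟨(j : ℕ) + 1, h⟩⟩ : (k : Fin t) × Fin (d k)) (1 : E)
      else 0 := by
  rw [Matrix.mulVec_single_one, JM_eq]
  funext ⟨k', i⟩
  change Matrix.blockDiagonal' (fun i => Cfsg.jordanBlock (d i) E - 1) ⟨k', i⟩ ⟨k, j⟩ = _
  by_cases hk : k' = k
  · subst hk
    rw [Matrix.blockDiagonal'_apply_eq, Cfsg.Agent.Lib.Helper48.jordanBlock_sub_one_apply]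
    by_cases h : (j : ℕ) + 1 < d k'
    · rw [dif_pos h, Pi.single_apply]
      by_cases hi : (i : ℕ) = (j : ℕ) + 1
      · rw [if_pos hi, if_pos]
        congr 1
        exact Fin.ext hi
      · rw [if_neg hi, if_neg]
        intro h2
        apply hi
        have h3 := eq_of_heq (Sigma.mk.inj h2).2
        rw [h3]
    · rw [dif_neg h, if_neg]
      · rfl
      · have := i.2
        omega
  · rw [Matrix.blockDiagonal'_apply_ne _ _ _ hk]
    split_ifs with h
    · rw [Pi.single_apply, if_neg]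
      intro h2
      exact hk (Sigma.mk.inj h2).1
    · rfl

end Cfsg.Agent.Lib.Helper15.SF3
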