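import Cfsg.Agent.Lib.Helper15.SF3.Defs
import Cfsg.Agent.Lib.Helper15.SF3.JM
import Cfsg.Agent.Lib.Helper48.JordanBlockDiag

/-! Ladder SF3 (S5966), rung JB. -/

set_option autoImplicit false

namespace Cfsg.Agent.Lib.Helper15.SF3

open Module

theorem exists_jb {E : Type*} [Field E] {n : ℕ} (N : End E (Fin n → E)) (hN : IsNilpotent N) :
    ∃ (t : ℕ) (d : Fin t → ℕ) (b : Basis ((k : Fin t) × Fin (d k)) E (Fin n → E)),
      (∀ k, 1 ≤ d k) ∧ IsJB d N b := by
  obtain ⟨μ, hμ1, hJ⟩ := Cfsg.Agent.Lib.Helper48.exists_jtype n (Fin n → E) N (by simp) hN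
  let L := μ.toList
  let d : Fin L.length → ℕ := fun k => L.get k
  have hsz : Cfsg.Agent.Lib.Helper48.sizes d = μ := by
    unfold Cfsg.Agent.Lib.Helper48.sizes
    rw [Fin.univ_val_map]
    have : List.ofFn d = L := List.ofFn_get L
    rw [this]
    exact Multiset.coe_toList μ
  have hd1 : ∀ k, 1 ≤ d k := by
    intro k
    apply hμ1
    rw [← Multiset.mem_toList]
    exact List.get_mem L k
  have hJ' := Cfsg.Agent.Lib.Helper48.jtype_jordanTypeMatrix (F := E) d
  rw [hsz] at hJ'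
  obtain ⟨φ, hφ⟩ := Cfsg.Agent.Lib.Helper48.JType.exists_equiv hJ hJ' hN
    (Cfsg.Agent.Lib.Helper48.isNilpotent_jordanTypeMatrix_sub_one d)
  refine ⟨L.length, d, (Pi.basisFun E ((k : Fin L.length) × Fin (d k))).map φ.symm, hd1, ?_⟩
  intro k j
  rw [Basis.map_apply, Pi.basisFun_apply]
  have h1 := hφ (φ.symm (Pi.single (⟨k, j⟩ : (k : Fin L.length) × Fin (d k)) (1 : E)))
  rw [LinearEquiv.apply_symm_apply, Matrix.mulVecLin_apply, jm] at h1
  rw [← LinearEquiv.eq_symm_apply] at h1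
  rw [h1]
  split_ifs with h
  · rw [Basis.map_apply, Pi.basisFun_apply]
  · exact map_zero _

end Cfsg.Agent.Lib.Helper15.SF3
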