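import Cfsg.Agent.Lib.Helper15.SF3.Defs

/-! Ladder SF3 (S5966), rung JLE. -/

set_option autoImplicit false

namespace Cfsg.Agent.Lib.Helper15.SF3

open Module

theorem JLE_pow {E : Type*} [Field E] {V : Type*} [AddCommGroup V] [Module E V] {t : ℕ}
    {d : Fin t → ℕ} {N : End E V} {b : Basis ((k : Fin t) × Fin (d k)) E V} (h : IsJB d N b)
    (k : Fin t) (i : ℕ) (hi : i < d k) :
    (N ^ i) (b ⟨k, ⟨0, by omega⟩⟩) = b ⟨k, ⟨i, hi⟩⟩ := by
  induction i with
  | zero => simp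
  | succ i ih =>
    rw [pow_succ', Module.End.mul_apply, ih (by omega), h k ⟨i, by omega⟩, dif_pos hi]

theorem jb_le {E : Type*} [Field E] {V : Type*} [AddCommGroup V] [Module E V] {t : ℕ}
    {d : Fin t → ℕ} {N : End E V} {b : Basis ((k : Fin t) × Fin (d k)) E V} (h : IsJB d N b)
    (s : ℕ) (hs : N ^ s = 0) (k : Fin t) : d k ≤ s := by
  by_contra hlt
  push Not at hlt
  have h1 := JLE_pow h k s hlt
  rw [hs, LinearMap.zero_apply] at h1
  exact b.ne_zero _ h1.symm

end Cfsg.Agent.Lib.Helper15.SF3
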