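import Cfsg.Agent.Lib.Helper15.SF3.Defs
import Cfsg.Agent.Lib.Helper15.SF3.EXTR

/-! Ladder SF3 (S5966), rung SEL. -/

set_option autoImplicit false

namespace Cfsg.Agent.Lib.Helper15.SF3

open Module

theorem exists_sel {F : Type*} [Field F] (m : ℕ) (P Pi : Matrix (Fin (m + m)) (Fin (m + m)) F)
    (hP : P * Pi = 1) : ∃ f : Fin m → Fin (m + m), (top (P * sel F f)).det ≠ 0 := by
  have hs : Function.Surjective (top P).mulVec := by
    intro y
    refine ⟨Pi.mulVec (fun a => Sum.elim y 0 (finSumFinEquiv.symm a)), ?_⟩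
    funext i
    have h1 : (top P).mulVec (Pi.mulVec (fun a => Sum.elim y 0 (finSumFinEquiv.symm a))) i =
        P.mulVec (Pi.mulVec (fun a => Sum.elim y 0 (finSumFinEquiv.symm a)))
          (finSumFinEquiv (Sum.inl i)) := rfl
    rw [h1, Matrix.mulVec_mulVec, hP, Matrix.one_mulVec, Equiv.symm_apply_apply]
    rfl
  obtain ⟨f, hf⟩ := exists_minor (top P) hs
  refine ⟨f, ?_⟩
  have h2 : top (P * sel F f) = (top P).submatrix id f := by
    ext i j
    change (P * sel F f) (finSumFinEquiv (Sum.inl i)) j = P (finSumFinEquiv (Sum.inl i)) (f j)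
    rw [Matrix.mul_apply]
    simp [sel]
  rw [h2]
  exact hf

end Cfsg.Agent.Lib.Helper15.SF3
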