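import Cfsg.Agent.Lib.Helper15.SF3.Defs

/-! Ladder SF3 (S5966), rung SQ2. -/

set_option autoImplicit false

namespace Cfsg.Agent.Lib.Helper15.SF3

open Module

theorem SQ2_ringChar {F : Type*} [Field F] (h2 : (2 : F) ≠ 0) : ringChar F ≠ 2 := by
  intro h
  apply h2
  have h1 := CharP.cast_eq_zero F (ringChar F)
  rw [h] at h1
  exact_mod_cast h1

theorem SQ2_pow {F : Type*} [Field F] [Finite F] (F₀ : Subfield F) (β : F) (hβ : β ∈ F₀)
    (h0 : β ≠ 0) : β ^ (Nat.card ↥F₀ - 1) = 1 := by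
  have := Fintype.ofFinite ↥F₀
  have h1 : (⟨β, hβ⟩ : ↥F₀) ≠ 0 := by
    intro h
    exact h0 (congrArg Subtype.val h)
  have h3 := FiniteField.pow_card_sub_one_eq_one (⟨β, hβ⟩ : ↥F₀) h1
  rw [Nat.card_eq_fintype_card]
  have h4 := congrArg Subtype.val h3
  simpa using h4

theorem isSquare_of_mem {F : Type*} [Field F] [Fintype F] (h2 : (2 : F) ≠ 0) (F₀ : Subfield F)
    (q₀ : ℕ) (hF₀ : Nat.card ↥F₀ = q₀) (hq : Fintype.card F = q₀ ^ 2) (β : F) (hβ : β ∈ F₀) :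
    IsSquare β := by
  by_cases h0 : β = 0
  · exact ⟨0, by rw [h0]; simp⟩
  have hch := SQ2_ringChar h2
  rw [FiniteField.isSquare_iff hch h0, hq]
  have hodd : Odd q₀ := by
    have h1 := FiniteField.odd_card_of_char_ne_two hch
    rw [hq] at h1
    rw [sq] at h1
    exact Nat.Odd.of_mul_left (Nat.odd_iff.2 h1)
  obtain ⟨s, rfl⟩ := hodd
  have h3 := SQ2_pow F₀ β hβ h0
  rw [hF₀] at h3
  have e : (2 * s + 1) ^ 2 / 2 = (2 * s + 1 - 1) * (s + 1) := by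
    have : (2 * s + 1) ^ 2 = 2 * ((2 * s + 1 - 1) * (s + 1)) + 1 := by
      simp only [Nat.add_sub_cancel]
      ring
    omega
  rw [e, pow_mul, h3, one_pow]

end Cfsg.Agent.Lib.Helper15.SF3
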