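import Cfsg.Agent.Lib.Helper15.SF3.Defs
import Cfsg.Agent.Lib.Helper15.SF3.SQ2
import Cfsg.Agent.Lib.Helper99.FFArithB
import Cfsg.Agent.Lib.Helper99.FFArithC

/-! Ladder SF3 (S5966), rung SQ. -/

set_option autoImplicit false

namespace Cfsg.Agent.Lib.Helper15.SF3

open Module

/-- `k` odd: `Fˣ = (Fˣ)² F₀ˣ`. -/
theorem exists_sq_mul {F : Type*} [Field F] [Fintype F] (h2 : (2 : F) ≠ 0) (F₀ : Subfield F)
    (k q₀ : ℕ) (hk : Odd k) (hF₀ : Nat.card ↥F₀ = q₀) (hqk : Fintype.card F = q₀ ^ k) (δ : Fˣ) :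
    ∃ l β : Fˣ, (β : F) ∈ F₀ ∧ l ^ 2 * β = δ := by
  have hch := SQ2_ringChar h2
  have hoddF : Fintype.card F % 2 = 1 := FiniteField.odd_card_of_char_ne_two hch
  by_cases hsq : IsSquare (δ : F)
  · obtain ⟨r, hr⟩ := hsq
    have hr0 : r ≠ 0 := by
      rintro rfl
      exact δ.ne_zero (by rw [hr]; simp)
    exact ⟨Units.mk0 r hr0, 1, F₀.one_mem, Units.ext (by simp [hr, sq])⟩
  · have := Fintype.ofFinite ↥F₀
    have h20 : (2 : ↥F₀) ≠ 0 := by
      intro h
      apply h2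
      have h3 : ((2 : ↥F₀) : F) = 0 := by rw [h]; rfl
      exact h3
    have hch0 := SQ2_ringChar h20
    obtain ⟨b, hb⟩ := FiniteField.exists_nonsquare hch0
    have hb0 : b ≠ 0 := by
      rintro rfl
      exact hb ⟨0, by simp⟩
    have hcard0 : Fintype.card ↥F₀ = q₀ := by rw [← hF₀, Nat.card_eq_fintype_card]
    have hb1 : b ^ (q₀ / 2) = -1 := by
      rcases FiniteField.pow_dichotomy hch0 hb0 with h | h
      · exact absurd ((FiniteField.isSquare_iff hch0 hb0).2 h) hb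
      · rw [← hcard0]; exact h
    have hb1' : (b : F) ^ (q₀ / 2) = -1 := by
      have := congrArg Subtype.val hb1
      simpa using this
    have hq₀odd : Odd q₀ := by
      have h1 := FiniteField.odd_card_of_char_ne_two hch0
      rw [hcard0] at h1
      exact Nat.odd_iff.2 h1
    obtain ⟨s, hs, hs'⟩ := Cfsg.Agent.Lib.Helper99.exists_odd_mul_eq_pow_sub_one q₀ k hq₀odd hk
    have hhalf : q₀ ^ k / 2 = (q₀ / 2) * s := by
      obtain ⟨u, rfl⟩ := hq₀odd
      have h3 : 1 ≤ (2 * u + 1) ^ k := Nat.one_le_pow _ _ (by omega)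
      have h4 : (2 * u + 1) / 2 = u := by omega
      have h5 : (2 * u + 1 - 1) * s = 2 * (u * s) := by
        simp only [Nat.add_sub_cancel]
        ring
      rw [h4]
      omega
    have hbF : (b : F) ^ (Fintype.card F / 2) = -1 := by
      rw [hqk, hhalf, pow_mul, hb1', hs.neg_one_pow]
    have hbF0 : (b : F) ≠ 0 := by
      intro h
      exact hb0 (Subtype.ext h)
    have hnsq : ∀ c : F, c ^ 2 ≠ (b : F) := by
      intro c hc
      have h6 : IsSquare (b : F) := ⟨c, by rw [← hc, sq]⟩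
      rw [FiniteField.isSquare_iff hch hbF0, hbF] at h6
      apply h2
      linear_combination -h6
    have hδn : ∀ c : F, c ^ 2 ≠ (δ : F) := by
      intro c hc
      exact hsq ⟨c, by rw [← hc, sq]⟩
    obtain ⟨r, hr0, hr⟩ := Cfsg.Agent.Lib.Helper99.exists_eq_mul_sq_of_nonsquares hoddF hδn hnsq
    refine ⟨Units.mk0 r hr0, Units.mk0 (b : F) hbF0, b.2, Units.ext ?_⟩
    simp only [Units.val_mul, Units.val_pow_eq_pow_val, Units.val_mk0]
    rw [hr]
    ring

end Cfsg.Agent.Lib.Helper15.SF3
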