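import Cfsg.Agent.Lib.Helper15.SF3.Defs

/-! Ladder SF3 (S5966), rung XM. -/

set_option autoImplicit false

namespace Cfsg.Agent.Lib.Helper15.SF3

open Module

theorem xmat_det {F : Type*} [Field F] (m : ℕ) (δ : F) : (xmat m δ).det = 1 := by
  unfold xmat
  rw [Matrix.det_reindex_self, Matrix.det_fromBlocks_zero₁₂, Matrix.det_one, mul_one]

theorem XM_sub {F : Type*} [Field F] (m : ℕ) (δ : F) :
    xmat m δ - 1 = Matrix.reindex finSumFinEquiv finSumFinEquiv
      (Matrix.fromBlocks 0 0 (Matrix.diagonal (cvec m δ)) 0) := by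
  have h1 : (1 : Matrix (Fin (m + m)) (Fin (m + m)) F) =
      Matrix.reindex finSumFinEquiv finSumFinEquiv
        (Matrix.fromBlocks 1 0 0 1 : Matrix (Fin m ⊕ Fin m) (Fin m ⊕ Fin m) F) := by
    rw [Matrix.fromBlocks_one, Matrix.reindex_apply, Matrix.submatrix_one_equiv]
  unfold xmat
  rw [h1]
  simp only [Matrix.reindex_apply]
  have h2 : (Matrix.fromBlocks 0 0 (Matrix.diagonal (cvec m δ)) 0 :
      Matrix (Fin m ⊕ Fin m) (Fin m ⊕ Fin m) F) =
      Matrix.fromBlocks 1 0 (Matrix.diagonal (cvec m δ)) 1 - Matrix.fromBlocks 1 0 0 1 := by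
    ext (i | i) (j | j) <;> simp [Matrix.sub_apply, -Matrix.fromBlocks_one]
  rw [h2]
  rfl

theorem xmat_sub_one_sq {F : Type*} [Field F] (m : ℕ) (δ : F) :
    (xmat m δ - 1) * (xmat m δ - 1) = 0 := by
  rw [XM_sub]
  simp only [Matrix.reindex_apply]
  rw [Matrix.submatrix_mul_equiv, Matrix.fromBlocks_multiply]
  simp

theorem xmat_pow_three {F : Type*} [Field F] [CharP F 3] (m : ℕ) (δ : F) : (xmat m δ) ^ 3 = 1 := by
  have h := xmat_sub_one_sq m δ
  set N := xmat m δ - 1 with hN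
  have hx : xmat m δ = 1 + N := by rw [hN]; abel
  have h3 : (3 : Matrix (Fin (m + m)) (Fin (m + m)) F) = 0 := by
    have h4 : ((3 : ℕ) : F) = 0 := CharP.cast_eq_zero F 3
    have h5 : ((3 : ℕ) : Matrix (Fin (m + m)) (Fin (m + m)) F) = 0 := by
      ext i j
      rw [Matrix.natCast_apply]
      split_ifs
      · simpa using h4
      · simp
    exact_mod_cast h5
  rw [hx]
  have e : (1 + N) ^ 3 = 1 + 3 * N + (3 + N) * (N * N) := by noncomm_ring
  rw [e, h, h3]
  simp

theorem xmat_not_scalar {F : Type*} [Field F] (m : ℕ) (hm : 1 ≤ m) (δ : F) (hδ : δ ≠ 0) (z : F) :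
    xmat m δ ≠ z • (1 : Matrix (Fin (m + m)) (Fin (m + m)) F) := by
  intro h
  have h1 := congrFun (congrFun h (finSumFinEquiv (Sum.inr ⟨0, hm⟩))) (finSumFinEquiv (Sum.inl ⟨0, hm⟩))
  unfold xmat at h1
  rw [Matrix.reindex_apply, Matrix.submatrix_apply, Equiv.symm_apply_apply, Equiv.symm_apply_apply,
    Matrix.fromBlocks_apply₂₁, Matrix.diagonal_apply_eq, Matrix.smul_apply, Matrix.one_apply_ne
      (by
        intro h2
        have := finSumFinEquiv.injective h2
        simp at this)] at h1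
  apply hδ
  simpa [cvec] using h1

end Cfsg.Agent.Lib.Helper15.SF3
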