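import Cfsg.Agent.Lib.Helper15.SF3.Defs
import Cfsg.Agent.Lib.Helper15.SF3.XM

/-! Ladder SF3 (S5966), rung VAL0. -/

set_option autoImplicit false

namespace Cfsg.Agent.Lib.Helper15.SF3

open Module

theorem VAL0_mul {F : Type*} [Field F] (m : ℕ) (δ : F) (U : Matrix (Fin (m + m)) (Fin m) F)
    (i : Fin m ⊕ Fin m) (j : Fin m) :
    ((xmat m δ - 1) * U : Matrix (Fin (m + m)) (Fin m) F) (finSumFinEquiv i) j =
      ∑ y : Fin m ⊕ Fin m, (Matrix.fromBlocks 0 0 (Matrix.diagonal (cvec m δ)) 0 :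
        Matrix (Fin m ⊕ Fin m) (Fin m ⊕ Fin m) F) i y * U (finSumFinEquiv y) j := by
  rw [XM_sub, Matrix.mul_apply, ← Equiv.sum_comp finSumFinEquiv]
  apply Finset.sum_congr rfl
  intro y _
  rw [Matrix.reindex_apply, Matrix.submatrix_apply, Equiv.symm_apply_apply, Equiv.symm_apply_apply]

theorem VAL0_prod {F : Type*} [Field F] (m : ℕ) (hm : 1 ≤ m) (δ : F) : ∏ i, cvec m δ i = δ := by
  obtain ⟨e, rfl⟩ : ∃ e, m = e + 1 := ⟨m - 1, by omega⟩
  rw [Fin.prod_univ_succ]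
  simp [cvec]

theorem val0 {F : Type*} [Field F] (m : ℕ) (hm : 1 ≤ m) (δ : F)
    (U : Matrix (Fin (m + m)) (Fin m) F) :
    (wmat (xmat m δ - 1) U).det = δ * (top U).det ^ 2 := by
  have h : wmat (xmat m δ - 1) U = Matrix.fromBlocks (top U) 0
      (U.submatrix (fun i => finSumFinEquiv (Sum.inr i)) id)
      (Matrix.diagonal (cvec m δ) * top U) := by
    ext (i | i) (j | j)
    · rfl
    · change ((xmat m δ - 1) * U : Matrix (Fin (m + m)) (Fin m) F) (finSumFinEquiv (Sum.inl i)) j = 0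
      rw [VAL0_mul]
      simp
    · rfl
    · change ((xmat m δ - 1) * U : Matrix (Fin (m + m)) (Fin m) F) (finSumFinEquiv (Sum.inr i)) j =
        (Matrix.diagonal (cvec m δ) * top U) i j
      rw [VAL0_mul, Fintype.sum_sum_type, Matrix.mul_apply]
      simp [top]
  rw [h, Matrix.det_fromBlocks_zero₁₂, Matrix.det_mul, Matrix.det_diagonal, VAL0_prod m hm δ]
  ring

end Cfsg.Agent.Lib.Helper15.SF3
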