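import Cfsg.Agent.Lib.Helper15.SF3.Defs
import Cfsg.Agent.Lib.Helper15.SF3.VAL0

/-! Ladder SF3 (S5966), rung VAL. -/

set_option autoImplicit false

namespace Cfsg.Agent.Lib.Helper15.SF3

open Module

theorem val {F : Type*} [Field F] (m : ℕ) (hm : 1 ≤ m) (δ : F)
    (P Pi : Matrix (Fin (m + m)) (Fin (m + m)) F) (hP : Pi * P = 1) (hdet : Pi.det = 1)
    (U : Matrix (Fin (m + m)) (Fin m) F) :
    (wmat (Pi * xmat m δ * P - 1) U).det = δ * (top (P * U)).det ^ 2 := by
  have h1 : Pi * xmat m δ * P - 1 = Pi * (xmat m δ - 1) * P := by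
    rw [Matrix.mul_sub, Matrix.sub_mul, Matrix.mul_one, hP]
  have h2 : Matrix.fromCols U ((Pi * xmat m δ * P - 1) * U) =
      Pi * Matrix.fromCols (P * U) ((xmat m δ - 1) * (P * U)) := by
    rw [h1]
    ext i (j | j)
    · change U i j = (Pi * Matrix.fromCols (P * U) ((xmat m δ - 1) * (P * U))) i (Sum.inl j)
      rw [Matrix.mul_apply]
      simp only [Matrix.fromCols_apply_inl]
      rw [← Matrix.mul_apply, ← Matrix.mul_assoc, hP, Matrix.one_mul]
    · change (Pi * (xmat m δ - 1) * P * U : Matrix (Fin (m + m)) (Fin m) F) i j =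
        (Pi * Matrix.fromCols (P * U) ((xmat m δ - 1) * (P * U))) i (Sum.inr j)
      rw [Matrix.mul_apply (M := Pi) (N := Matrix.fromCols (P * U) ((xmat m δ - 1) * (P * U)))]
      simp only [Matrix.fromCols_apply_inr]
      rw [← Matrix.mul_apply]
      simp only [Matrix.mul_assoc]
  have h3 : wmat (Pi * xmat m δ * P - 1) U =
      (Pi.submatrix finSumFinEquiv finSumFinEquiv) * wmat (xmat m δ - 1) (P * U) := by
    unfold wmat
    rw [h2, Matrix.submatrix_mul_equiv]
  rw [h3, Matrix.det_mul, Matrix.det_submatrix_equiv_self, hdet, one_mul, val0 m hm]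

end Cfsg.Agent.Lib.Helper15.SF3
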