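import Cfsg.Agent.Lib.Helper15.SF3.Defs

/-! Ladder SF3 (S5966), rung WT. -/

set_option autoImplicit false

namespace Cfsg.Agent.Lib.Helper15.SF3

open Module

theorem WT_prod {F : Type*} [Field F] (l β : F) (e : ℕ) (he : 1 ≤ e) :
    ∏ j : Fin e, (if (j : ℕ) = 0 then l * β else l) = l ^ e * β := by
  obtain ⟨e, rfl⟩ : ∃ e', e = e' + 1 := ⟨e - 1, by omega⟩
  rw [Fin.prod_univ_succ]
  simp
  ring

theorem exists_weights {F : Type*} [Field F] (F₀ : Subfield F) {t : ℕ} (d : Fin t → ℕ) (k₀ : Fin t)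
    (hd : 1 ≤ d k₀) (l β δ : Fˣ) (hβ : (β : F) ∈ F₀) (hl : l ^ (d k₀) * β = δ) :
    ∃ w : ((k : Fin t) × Fin (d k)) → Fˣ,
      (∀ (k : Fin t) (j : Fin (d k)) (h : (j : ℕ) + 1 < d k),
        ((w ⟨k, j⟩ : Fˣ) : F) * (((w ⟨k, ⟨(j : ℕ) + 1, h⟩⟩ : Fˣ) : F))⁻¹ ∈ F₀) ∧
      ∏ i, ((w i : Fˣ) : F) = (δ : F) := by
  refine ⟨fun i => if i.1 = k₀ then (if (i.2 : ℕ) = 0 then l * β else l) else 1, ?_, ?_⟩
  · intro k j h
    by_cases hk : k = k₀
    · simp only [hk, if_true, Nat.add_eq_zero_iff, one_ne_zero, and_false, if_false]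
      by_cases hj : (j : ℕ) = 0
      · simp only [hj, if_true, Units.val_mul]
        have : (l : F) * (β : F) * (l : F)⁻¹ = β := by
          field_simp
        rw [this]
        exact hβ
      · simp only [hj, if_false]
        rw [mul_inv_cancel₀ l.ne_zero]
        exact F₀.one_mem
    · simp only [hk, if_false, Units.val_one, inv_one, mul_one]
      exact F₀.one_mem
  · rw [Fintype.prod_sigma, Finset.prod_eq_single k₀]
    · simp only [if_true]
      have h1 : ∀ j : Fin (d k₀), (((if (j : ℕ) = 0 then l * β else l : Fˣ)) : F) =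
          if (j : ℕ) = 0 then (l : F) * (β : F) else (l : F) := by
        intro j
        split_ifs <;> simp
      rw [Finset.prod_congr rfl (fun j _ => h1 j), WT_prod _ _ _ hd, ← hl]
      simp
    · intro k _ hk
      simp [hk]
    · simp

end Cfsg.Agent.Lib.Helper15.SF3
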