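import Cfsg.Agent.Lib.Helper15.SF3.Defs
import Cfsg.Agent.Lib.Helper15.SF3.JB
import Cfsg.Agent.Lib.Helper15.SF3.JLE
import Cfsg.Agent.Lib.Helper15.SF3.WT
import Cfsg.Agent.Lib.Helper15.SF3.CUBE
import Cfsg.Agent.Lib.Helper15.SF3.SQ
import Cfsg.Agent.Lib.Helper15.SF3.ACT
import Cfsg.Agent.Lib.Helper15.SF3.CONJ
import Cfsg.Agent.Lib.Helper15.SF3.XM
import Cfsg.Agent.Lib.Helper15.SF3.VAL
import Cfsg.Agent.Lib.Helper15.SF3.SEL
import Cfsg.Agent.Lib.Helper15.SF3.DETM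
import Cfsg.Agent.Lib.Helper15.SF3.SQ2
import Cfsg.Agent.Lib.Helper15.SF3.C0
import Cfsg.Agent.Lib.Helper48.JordanGL

/-! Ladder SF3 (S5966): assembly. -/

set_option autoImplicit false

namespace Cfsg.Agent.Lib.Helper15.SF3

open Module

theorem two_ne_zero' {F : Type*} [Field F] [CharP F 3] : (2 : F) ≠ 0 := by
  intro h
  have h1 : ((2 : ℕ) : F) = 0 := by exact_mod_cast h
  rw [CharP.cast_eq_zero_iff F 3] at h1
  omega

theorem fwd {F : Type*} [Field F] [Fintype F] [CharP F 3] (m : ℕ) (hm : 1 ≤ m) (F₀ : Subfield F)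
    (q₀ : ℕ) (hF₀ : Nat.card ↥F₀ = q₀) (hq : Fintype.card F = q₀ ^ 2) :
    ∃ x : Matrix.SpecialLinearGroup (Fin (m + m)) F,
      (∃ z : F, ((x ^ 3 : Matrix.SpecialLinearGroup (Fin (m + m)) F) :
        Matrix (Fin (m + m)) (Fin (m + m)) F) = z • (1 : Matrix (Fin (m + m)) (Fin (m + m)) F)) ∧
      (∀ z : F, (x : Matrix (Fin (m + m)) (Fin (m + m)) F) ≠
        z • (1 : Matrix (Fin (m + m)) (Fin (m + m)) F)) ∧
      ∀ P : Matrix.SpecialLinearGroup (Fin (m + m)) F, P⁻¹ * x * P ∉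
        ((Cfsg.Geo.subfieldSubgroup F₀ 1).comap (Matrix.SpecialLinearGroup.toGL :
          Matrix.SpecialLinearGroup (Fin (m + m)) F →* GL (Fin (m + m)) F)) := by
  have h2 : (2 : F) ≠ 0 := two_ne_zero'
  have hch : ringChar F ≠ 2 := by
    rw [ringChar.eq F 3]
    norm_num
  obtain ⟨δ, hδ⟩ := FiniteField.exists_nonsquare hch
  have hδ0 : δ ≠ 0 := by
    rintro rfl
    exact hδ ⟨0, by simp⟩
  obtain ⟨x, hx⟩ : ∃ x : Matrix.SpecialLinearGroup (Fin (m + m)) F,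
      (x : Matrix (Fin (m + m)) (Fin (m + m)) F) = xmat m δ := ⟨⟨xmat m δ, xmat_det m δ⟩, rfl⟩
  refine ⟨x, ⟨1, ?_⟩, fun z => by rw [hx]; exact xmat_not_scalar m hm δ hδ0 z, ?_⟩
  · rw [Matrix.SpecialLinearGroup.coe_pow, one_smul, hx]
    exact xmat_pow_three m δ
  · intro P hmem
    rw [Subgroup.mem_comap] at hmem
    obtain ⟨c, M₀, hc, hg⟩ := Cfsg.Agent.Lib.Helper99.exists_entries_of_mem_subfieldSubgroup F₀ _ hmem
    set Pm : Matrix (Fin (m + m)) (Fin (m + m)) F := (P : Matrix (Fin (m + m)) (Fin (m + m)) F)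
      with hPm
    set Pi : Matrix (Fin (m + m)) (Fin (m + m)) F :=
      ((P⁻¹ : Matrix.SpecialLinearGroup (Fin (m + m)) F) : Matrix (Fin (m + m)) (Fin (m + m)) F)
      with hPi
    have hPiP : Pi * Pm = 1 := by
      rw [hPi, hPm, ← Matrix.SpecialLinearGroup.coe_mul, inv_mul_cancel,
        Matrix.SpecialLinearGroup.coe_one]
    have hPPi : Pm * Pi = 1 := by
      rw [hPi, hPm, ← Matrix.SpecialLinearGroup.coe_mul, mul_inv_cancel,
        Matrix.SpecialLinearGroup.coe_one]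
    have hG : Pi * xmat m δ * Pm = c • F₀.subtype.mapMatrix M₀ := by
      rw [← hg, ← hx]
      rfl
    have hG1 : Pi * xmat m δ * Pm - 1 = Pi * (xmat m δ - 1) * Pm := by
      rw [Matrix.mul_sub, Matrix.sub_mul, Matrix.mul_one, hPiP]
    have hsq : (Pi * xmat m δ * Pm - 1) * (Pi * xmat m δ * Pm - 1) = 0 := by
      rw [hG1]
      calc Pi * (xmat m δ - 1) * Pm * (Pi * (xmat m δ - 1) * Pm)
          = Pi * ((xmat m δ - 1) * (Pm * Pi) * (xmat m δ - 1)) * Pm := by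
            simp only [Matrix.mul_assoc]
        _ = 0 := by rw [hPPi, Matrix.mul_one, xmat_sub_one_sq, Matrix.mul_zero, Matrix.zero_mul]
    have hcF : c ∈ F₀ := by
      apply scalar_mem h2 F₀ (by omega : 1 ≤ m + m) c hc M₀
      rw [← hG]
      exact hsq
    have hGm : ∀ i j, (Pi * xmat m δ * Pm - 1) i j ∈ F₀ := by
      intro i j
      rw [hG, Matrix.sub_apply, Matrix.smul_apply, Matrix.one_apply]
      apply F₀.sub_mem
      · exact F₀.mul_mem hcF (M₀ i j).2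
      · split_ifs
        · exact F₀.one_mem
        · exact F₀.zero_mem
    obtain ⟨f, hf⟩ := exists_sel m Pm Pi hPPi
    have hU : ∀ i j, sel F f i j ∈ F₀ := by
      intro i j
      unfold sel
      rw [Matrix.of_apply]
      split_ifs
      · exact F₀.one_mem
      · exact F₀.zero_mem
    have hv := val m hm δ Pm Pi hPiP (P⁻¹).2 (sel F f)
    have hdm := det_mem F₀ _ (wmat_mem F₀ _ _ hGm hU)
    obtain ⟨r, hr⟩ := isSquare_of_mem h2 F₀ q₀ hF₀ hq _ hdm
    apply hδ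
    refine ⟨r / (top (Pm * sel F f)).det, ?_⟩
    rw [hv] at hr
    field_simp
    linear_combination hr

theorem bwd {F : Type*} [Field F] [Fintype F] [CharP F 3] (n : ℕ) (hn : 2 ≤ n) (F₀ : Subfield F)
    (k q₀ : ℕ) (hF₀ : Nat.card ↥F₀ = q₀) (hqk : Fintype.card F = q₀ ^ k) (hcase : Odd n ∨ Odd k)
    (x : Matrix.SpecialLinearGroup (Fin n) F) (z : F)
    (hz : ((x ^ 3 : Matrix.SpecialLinearGroup (Fin n) F) : Matrix (Fin n) (Fin n) F) =
      z • (1 : Matrix (Fin n) (Fin n) F)) :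
    ∃ P : Matrix.SpecialLinearGroup (Fin n) F, P⁻¹ * x * P ∈
      ((Cfsg.Geo.subfieldSubgroup F₀ 1).comap (Matrix.SpecialLinearGroup.toGL :
        Matrix.SpecialLinearGroup (Fin n) F →* GL (Fin n) F)) := by
  classical
  have h2 : (2 : F) ≠ 0 := two_ne_zero'
  have : Fact (Nat.Prime 3) := ⟨Nat.prime_three⟩
  obtain ⟨a, ha⟩ := exists_cube z
  have hne : Nonempty (Fin n) := ⟨⟨0, by omega⟩⟩
  have ha0 : a ≠ 0 := by
    rintro rfl
    have h1 := (x ^ 3).2
    rw [hz, ← ha] at h1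
    simp at h1
  set T : End F (Fin n → F) := Matrix.toLin' (x : Matrix (Fin n) (Fin n) F) with hTdef
  set N : End F (Fin n → F) := a⁻¹ • T - 1 with hNdef
  have hT : T = a • (1 + N) := by
    rw [hNdef, add_sub_cancel, smul_smul, mul_inv_cancel₀ ha0, one_smul]
  have hT3 : T ^ 3 = z • 1 := by
    rw [hTdef, ← Matrix.toLin'_pow, ← Matrix.SpecialLinearGroup.coe_pow, hz, map_smul,
      Matrix.toLin'_one]
    rfl
  have hN3 : N ^ 3 = 0 := by
    have h1 := Cfsg.Agent.Lib.Helper48.sub_one_pow_char_pow 3 (a⁻¹ • T) 1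
    rw [pow_one] at h1
    rw [hNdef, h1, smul_pow, hT3, smul_smul, ← ha, inv_pow, inv_mul_cancel₀ (pow_ne_zero 3 ha0),
      one_smul, sub_self]
  obtain ⟨t, d, b, hd1, hJB⟩ := exists_jb N ⟨3, hN3⟩
  have hd3 : ∀ k, d k ≤ 3 := jb_le hJB 3 hN3
  have hcard : Fintype.card ((k : Fin t) × Fin (d k)) = n := by
    rw [← Module.finrank_eq_card_basis b]
    simp
  have hsum : ∑ k, d k = n := by
    rw [← hcard, Fintype.card_sigma]
    simp
  let σ : Fin n ≃ ((k : Fin t) × Fin (d k)) := Fintype.equivOfCardEq (by rw [hcard]; simp)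
  have hD : LinearMap.det (((Pi.basisFun F (Fin n)).equiv b σ : (Fin n → F) ≃ₗ[F] (Fin n → F)) :
      (Fin n → F) →ₗ[F] (Fin n → F)) ≠ 0 := (LinearEquiv.isUnit_det' _).ne_zero
  set δ : Fˣ := (Units.mk0 _ hD)⁻¹ with hδ
  obtain ⟨k₀, l, β, hβ, hl⟩ : ∃ (k₀ : Fin t) (l β : Fˣ), (β : F) ∈ F₀ ∧ l ^ (d k₀) * β = δ := by
    by_cases h13 : ∃ k, d k = 1 ∨ d k = 3
    · obtain ⟨k₀, h | h⟩ := h13
      · exact ⟨k₀, δ, 1, F₀.one_mem, by rw [h, pow_one, mul_one]⟩
      · obtain ⟨l, hl⟩ := exists_cube_units δ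
        exact ⟨k₀, l, 1, F₀.one_mem, by rw [h, hl, mul_one]⟩
    · push Not at h13
      have hall : ∀ k, d k = 2 := by
        intro k
        have h1 := hd1 k
        have h3 := hd3 k
        have h4 := h13 k
        omega
      have hn2 : n = 2 * t := by
        rw [← hsum, Finset.sum_congr rfl (fun k _ => hall k)]
        simp [mul_comm]
      have hk : Odd k := by
        rcases hcase with h | h
        · exfalso
          rw [hn2] at h
          exact (Nat.not_odd_iff_even.2 (even_two_mul t)) h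
        · exact h
      obtain ⟨l, β, hβ, hl⟩ := exists_sq_mul h2 F₀ k q₀ hk hF₀ hqk δ
      exact ⟨⟨0, by omega⟩, l, β, hβ, by rw [hall, hl]⟩
  obtain ⟨w, hw, hprod⟩ := exists_weights F₀ d k₀ (hd1 k₀) l β δ hβ hl
  apply conj_mem F₀ x (b.unitsSMul w) σ ?_ a ha0
    (fun i => act_unitsSMul F₀ hJB w hw T a hT i)
  rw [Cfsg.Agent.Lib.Helper99.det_equiv_unitsSMul, hprod, hδ, Units.val_inv_eq_inv_val,
    Units.val_mk0, inv_mul_cancel₀ hD]

end Cfsg.Agent.Lib.Helper15.SF3
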